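import Cfsg.Agent.Lib.H38.SecClass
import Cfsg.Agent.Lib.H38.SectionTR
import Cfsg.Agent.Lib.H38.Norm
import Cfsg.Agent.Lib.H38.NilComm

set_option autoImplicit false

/-! Control of transfer in all sections and a normal subgroup of index `p`. -/

namespace H38.IndexP

open H38.Basic H38.Alperin H38.Functor H38.Control H38.Witness H38.Goldschmidt H38.WeakInd H38.Section H38.PPrime
  H38.SecClass H38.SectionTR H38.Norm Cfsg
open scoped commutatorElement

universe u

section general

variable {G : Type*} [Group G] [Finite G] {p : ℕ} [Fact p.Prime]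

theorem exists_index_p_of_not_le (S : Sylow p G) (h : ¬ (S : Subgroup G) ≤ commutator G) :
    ∃ N : Subgroup G, N.Normal ∧ N.index = p := by
  obtain ⟨s, hs, hsG⟩ := Set.not_subset.1 h
  let f : Abelianization G →* Abelianization G := powMonoidHom p
  have hf : f.range ≠ ⊤ := by
    intro hr
    have hsurj : Function.Surjective f := MonoidHom.range_eq_top.1 hr
    have hinj : Function.Injective f := Finite.injective_iff_surjective.2 hsurj
    obtain ⟨k, hk⟩ := S.2 ⟨s, hs⟩
    have hk' : s ^ p ^ k = 1 := by simpa using congrArg Subtype.val hk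
    have h1 : (Abelianization.of s) ^ p ^ k = 1 := by rw [← map_pow, hk', map_one]
    have h2 : ∀ (k : ℕ) (a : Abelianization G), a ^ p ^ k = 1 → a = 1 := by
      intro k
      induction k with
      | zero => intro a ha; simpa using ha
      | succ k ih =>
        intro a ha
        apply ih
        apply hinj
        show (a ^ p ^ k) ^ p = (1 : Abelianization G) ^ p
        rw [← pow_mul, ← pow_succ, ha, one_pow]
    have h3 := h2 k _ h1
    apply hsG
    have : s ∈ (Abelianization.of (G := G)).ker := h3
    rwa [Abelianization.ker_of] at this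
  have hp : IsPGroup p (Abelianization G ⧸ f.range) := by
    rw [isPGroup_iff_pow_pow_eq_one]
    intro q
    refine ⟨1, ?_⟩
    induction q using QuotientGroup.induction_on with
    | H x =>
      rw [pow_one, ← QuotientGroup.mk_pow, QuotientGroup.eq_one_iff]
      exact ⟨x, rfl⟩
  have hne : (⊥ : Subgroup (Abelianization G ⧸ f.range)) ≠ ⊤ := by
    intro hbt
    apply hf
    rw [eq_top_iff]
    intro x _
    have : (QuotientGroup.mk x : Abelianization G ⧸ f.range) ∈ (⊥ : Subgroup (Abelianization G ⧸ f.range)) := by
      rw [hbt]; trivial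
    rw [Subgroup.mem_bot, QuotientGroup.eq_one_iff] at this
    exact this
  obtain ⟨M, -, hMn, hMi⟩ := exists_index_p hp hne
  let g : G →* Abelianization G ⧸ f.range := (QuotientGroup.mk' f.range).comp Abelianization.of
  have hg : Function.Surjective g := (QuotientGroup.mk'_surjective _).comp (QuotientGroup.mk'_surjective _)
  exact ⟨M.comap g, hMn.comap g, by rw [Subgroup.index_comap_of_surjective M hg, hMi]⟩

/-- the `p`-automizer condition -/
def Aut (p : ℕ) {G : Type*} [Group G] (S : Subgroup G) : Prop :=
  ∀ g ∈ Subgroup.normalizer (S : Set G), (orderOf g).Coprime p → g ∈ Subgroup.centralizer (S : Set G)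

/-- `S` normal Sylow with the automizer condition: `S ∩ G' ≤ S'`. -/
theorem inf_le_of_normal (S : Sylow p G) (hn : (S : Subgroup G).Normal) (hA : Aut p (S : Subgroup G)) :
    (S : Subgroup G) ⊓ ⁅(⊤ : Subgroup G), (⊤ : Subgroup G)⁆ ≤ ⁅(S : Subgroup G), (S : Subgroup G)⁆ := by
  apply inf_commutator_le_of_sup_eq_top S hn le_rfl
  have hCn : (Subgroup.centralizer ((S : Subgroup G) : Set G)).Normal := inferInstance
  obtain ⟨k, hk⟩ := relIndex_eq_pow (p := p) (K := Subgroup.centralizer ((S : Subgroup G) : Set G)) (X := ⊤) (by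
    rw [Subgroup.normalizer_eq_top]) (by
    intro x _
    obtain ⟨k, hk⟩ := H52.PRes.exists_pow_coprime (p := p) x
    exact ⟨k, hA _ (by rw [Subgroup.normalizer_eq_top]; trivial) hk⟩)
  exact (eq_sup_of_relIndex_eq_pow le_top (isSyl_sylow S) hk).symm

end general

variable {p : ℕ} {W : ∀ (Q : Type u) [Group Q], Subgroup Q} {G : Type u} [Group G] [Finite G] [Fact p.Prime]

theorem TR.equiv {X Y : Type u} [Group X] [Group Y] [Finite Y] (hW : IsCharPFunctor.{u} p W) (h : TR p W Y) (e : Y ≃* X) :
    TR p W X := by
  intro S
  obtain ⟨T, hT⟩ := exists_sylow_map e S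
  have h2 := Subgroup.map_mono (f := (e : Y →* X)) (h T)
  rw [Subgroup.map_inf_eq _ _ _ e.injective, Subgroup.map_commutator, Subgroup.map_commutator,
    map_normalizer_equiv, map_induced_equiv hW e T.2, hT,
    Subgroup.map_top_of_surjective _ e.surjective] at h2
  exact h2

omit [Finite G] in
theorem not_le_of_TR (hW : IsCharPFunctor.{u} p W) (hctl : ∀ (X : Type u) [Group X] [Finite X], IsSec G X → TR p W X) :
    ∀ (n : ℕ) (X : Type u) [Group X] [Finite X], IsSec G X → Nat.card X = n → ∀ S : Sylow p X, (S : Subgroup X) ≠ ⊥ →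
      Aut p (S : Subgroup X) → ¬ (S : Subgroup X) ≤ ⁅(⊤ : Subgroup X), (⊤ : Subgroup X)⁆ := by
  intro n
  induction n using Nat.strong_induction_on with
  | _ n ih =>
    intro X _ _ hX hn S hS hA hle
    have hWf : IsConjugacyFunctor p (inducedFunctor W : Subgroup X → Subgroup X) := isConjugacyFunctor_induced hW
    set D := inducedFunctor W (S : Subgroup X) with hD
    have hDS : D ≤ (S : Subgroup X) := W_le hWf S.2
    have hDne : D ≠ ⊥ := W_ne_bot hWf S.2 hS
    set N := Subgroup.normalizer (D : Set X) with hN
    have hSN : (S : Subgroup X) ≤ N := le_normalizer_W hWf S.2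
    have h1 : (S : Subgroup X) ≤ ⁅N, N⁆ := by
      have := hctl X hX S
      rw [inf_eq_left.2 hle] at this
      exact this
    have hT : IsSyl p (S : Subgroup X) N := (isSyl_sylow S).of_le hSN le_top
    set T := hT.toSylow with hTdef
    have hTc : (T : Subgroup ↥N) = (S : Subgroup X).subgroupOf N := rfl
    have hmapT : (T : Subgroup ↥N).map N.subtype = (S : Subgroup X) := hT.map_toSylow
    have hmaptop : (⊤ : Subgroup ↥N).map N.subtype = N := by
      rw [← MonoidHom.range_eq_map, Subgroup.range_subtype]
    have h2 : (T : Subgroup ↥N) ≤ ⁅(⊤ : Subgroup ↥N), (⊤ : Subgroup ↥N)⁆ := by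
      rw [← Subgroup.map_le_map_iff_of_injective N.subtype_injective, Subgroup.map_commutator, hmapT, hmaptop]
      exact h1
    have hAT : Aut p (T : Subgroup ↥N) := by
      intro g hg ho
      have h3 : (g : X) ∈ Subgroup.normalizer ((S : Subgroup X) : Set X) := by
        have h4 : (g : X) ∈ (Subgroup.normalizer ((T : Subgroup ↥N) : Set ↥N)).map N.subtype := ⟨g, hg, rfl⟩
        rw [map_normalizer, hmapT] at h4
        exact h4.2
      have h4 := hA _ h3 (by rwa [Subgroup.orderOf_coe])
      rw [Subgroup.mem_centralizer_iff] at h4 ⊢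
      intro y hy
      exact Subtype.ext (h4 y hy)
    have hTne : (T : Subgroup ↥N) ≠ ⊥ := by
      intro h
      apply hS
      rw [← hmapT, h, Subgroup.map_bot]
    set D' := D.subgroupOf N with hD'
    have hD'n : D'.Normal := Subgroup.normal_in_normalizer
    have hD'T : D' ≤ (T : Subgroup ↥N) := by
      intro x hx
      exact hDS hx
    by_cases hcase : (T : Subgroup ↥N) ≤ D'
    · -- `T` normal in `N`
      have heq : (T : Subgroup ↥N) = D' := le_antisymm hcase hD'T
      have hTn : (T : Subgroup ↥N).Normal := by rw [heq]; exact hD'n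
      have h3 := inf_le_of_normal T hTn hAT
      rw [inf_eq_left.2 h2] at h3
      apply hTne
      exact H38.NilComm.eq_bot_of_le_commutator T.2 le_rfl h3
    · -- the quotient
      set π := QuotientGroup.mk' D' with hπ
      have hπs : Function.Surjective π := QuotientGroup.mk'_surjective D'
      set T' := T.mapSurjective hπs with hT'
      have hT'c : (T' : Subgroup (↥N ⧸ D')) = (T : Subgroup ↥N).map π := Sylow.coe_mapSurjective _ _
      refine ih (Nat.card (↥N ⧸ D')) ?_ (↥N ⧸ D') ((hX.sub N).quo D') rfl T' ?_ ?_ ?_
      · rw [← hn]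
        have h3 : Nat.card ↥N ≤ Nat.card X := Subgroup.card_le_card_group N
        have h4 := Subgroup.card_eq_card_quotient_mul_card_subgroup D'
        have h5 : 1 < Nat.card ↥D' := by
          have : D' ≠ ⊥ := by
            intro h
            apply hDne
            have := Subgroup.map_subgroupOf_eq_of_le (hDS.trans hSN)
            rw [← this, ← hD', h, Subgroup.map_bot]
          have := (Subgroup.nontrivial_iff_ne_bot D').2 this
          exact Finite.one_lt_card
        have h6 : 0 < Nat.card (↥N ⧸ D') := Nat.card_pos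
        calc Nat.card (↥N ⧸ D') < Nat.card (↥N ⧸ D') * Nat.card ↥D' := lt_mul_of_one_lt_right h6 h5
          _ = Nat.card ↥N := h4.symm
          _ ≤ _ := h3
      · intro h
        apply hcase
        intro x hx
        have : π x ∈ (T' : Subgroup (↥N ⧸ D')) := by rw [hT'c]; exact ⟨x, hx, rfl⟩
        rw [h, Subgroup.mem_bot] at this
        exact (QuotientGroup.eq_one_iff x).1 this
      · intro y hy ho
        obtain ⟨g, rfl⟩ := hπs y
        -- `g` normalizes `T`
        have hcomap : ∀ z : ↥N, π z ∈ (T' : Subgroup (↥N ⧸ D')) ↔ z ∈ (T : Subgroup ↥N) := by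
          intro z
          rw [hT'c]
          constructor
          · rintro ⟨t, ht, htz⟩
            have h3 : t⁻¹ * z ∈ D' := QuotientGroup.eq.1 htz
            have := mul_mem ht (hD'T h3)
            rwa [mul_inv_cancel_left] at this
          · intro hz; exact ⟨z, hz, rfl⟩
        have hgn : g ∈ Subgroup.normalizer ((T : Subgroup ↥N) : Set ↥N) := by
          rw [Subgroup.mem_normalizer_iff] at hy ⊢
          intro z
          rw [← hcomap, ← hcomap, hy (π z)]
          simp only [map_mul, map_inv]
        obtain ⟨k, hk⟩ := H52.PRes.exists_pow_coprime (p := p) g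
        have h3 := hAT _ (Subgroup.pow_mem _ hgn (p ^ k)) hk
        -- `π g` is a power of `π (g ^ p ^ k)`
        have h4 : (orderOf (π g)).Coprime (p ^ k) := ho.pow_right k
        obtain ⟨m, hm⟩ := exists_pow_eq_self_of_coprime (x := π g) (n := p ^ k) h4.symm
        have h5 : π ((g ^ p ^ k) ^ m) = π g := by rw [map_pow, map_pow]; exact hm
        rw [← h5, Subgroup.mem_centralizer_iff]
        intro t ht
        rw [hT'c] at ht
        obtain ⟨t, ht, rfl⟩ := ht
        have h6 := Subgroup.mem_centralizer_iff.1 (Subgroup.pow_mem _ h3 m) t ht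
        exact (map_mul π _ _).symm.trans ((congrArg π h6).trans (map_mul π _ _))
      · rw [hT'c]
        have h3 := Subgroup.map_mono (f := π) h2
        rwa [Subgroup.map_commutator, Subgroup.map_top_of_surjective π hπs] at h3

end H38.IndexP
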