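import Cfsg.Prelude.Def_ConjugacyFunctors
import Mathlib.Order.OrderIsoNat

set_option autoImplicit false

/-! Monotonicity and stabilization of the K-sequence. -/

namespace H38.KSeq

open Cfsg

variable {P : Type*} [Group P]

theorem kUpperStarFamily_anti {Q₁ Q₂ : Subgroup P} (h : Q₁ ≤ Q₂) :
    kUpperStarFamily Q₂ ⊆ kUpperStarFamily Q₁ :=
  fun _ hB => ⟨hB.1, (Subgroup.commutator_mono le_rfl h).trans hB.2⟩

theorem kLowerStarFamily_anti {Q₁ Q₂ : Subgroup P} (h : Q₁ ≤ Q₂) :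
    kLowerStarFamily Q₂ ⊆ kLowerStarFamily Q₁ :=
  fun _ hB => ⟨hB.1, h.trans hB.2.1, fun A hA hAQ hBA h1 h2 => hB.2.2 A hA (hAQ.trans h) hBA h1 h2⟩

theorem kSeqEven_le_of {n m : ℕ} (h : kSeqOdd P m ≤ kSeqOdd P n) : kSeqEven P n ≤ kSeqEven P m :=
  sSup_le_sSup (kLowerStarFamily_anti h)

theorem kSeqOdd_succ_le (n : ℕ) : kSeqOdd P (n + 1) ≤ kSeqOdd P n := by
  induction n with
  | zero => exact le_top
  | succ n ih => exact sSup_le_sSup (kUpperStarFamily_anti (kSeqEven_le_of ih))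

theorem kSeqOdd_antitone : Antitone (kSeqOdd P) := antitone_nat_of_succ_le kSeqOdd_succ_le

theorem kSeqEven_monotone : Monotone (kSeqEven P) := fun _ _ h => kSeqEven_le_of (kSeqOdd_antitone h)

theorem exists_stable [Finite P] : ∃ n : ℕ, ∀ m : ℕ, n ≤ m →
    kSeqOdd P m = kSeqOdd P n ∧ kSeqEven P m = kSeqEven P n := by
  obtain ⟨n, hn⟩ := WellFoundedGT.monotone_chain_condition
    (⟨fun k => OrderDual.toDual (kSeqOdd P k), fun _ _ h => kSeqOdd_antitone h⟩ : ℕ →o (Subgroup P)ᵒᵈ)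
  refine ⟨n, fun m hm => ?_⟩
  have h1 : kSeqOdd P m = kSeqOdd P n := (hn m hm).symm
  exact ⟨h1, by unfold kSeqEven; rw [h1]⟩

theorem exists_stable' [Finite P] : ∃ n : ℕ, ∀ m : ℕ, n ≤ m →
    kSeqEven P m = kInfLower P ∧ kSeqOdd P m = kInfUpper P := by
  obtain ⟨n, hn⟩ := exists_stable (P := P)
  refine ⟨n, fun m hm => ⟨?_, ?_⟩⟩
  · apply le_antisymm
    · exact le_iSup (kSeqEven P) m
    · refine iSup_le fun k => ?_
      rcases le_total k m with h | h
      · exact kSeqEven_monotone h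
      · rw [(hn k (hm.trans h)).2, (hn m hm).2]
  · apply le_antisymm
    · refine le_iInf fun k => ?_
      rcases le_total k m with h | h
      · exact kSeqOdd_antitone h
      · rw [(hn k (hm.trans h)).1, (hn m hm).1]
    · exact iInf_le (kSeqOdd P) m

end H38.KSeq
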