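import Cfsg.Agent.Lib.H38.Section

set_option autoImplicit false

/-! The class of the sections of a group, and transport along isomorphisms. -/

namespace H38.SecClass

open H38.Basic H38.Functor H38.Section Cfsg
open scoped commutatorElement

universe u

variable {G : Type u} [Group G]

/-- `X` is isomorphic to a section of `G` -/
def IsSec (G : Type u) [Group G] (X : Type u) [Group X] : Prop :=
  ∃ (K : Subgroup G) (f : ↥K →* X), Function.Surjective f

theorem IsSec.sub {X : Type u} [Group X] (H : Subgroup X) (h : IsSec G X) : IsSec G ↥H := by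
  obtain ⟨K, f, hf⟩ := h
  have hle : (H.comap f).map K.subtype ≤ K := Subgroup.map_subtype_le _
  refine ⟨(H.comap f).map K.subtype, (f.comp (Subgroup.inclusion hle)).codRestrict H ?_, ?_⟩
  · rintro ⟨_, y, hy, rfl⟩
    have hy' : f y ∈ H := hy
    have e : Subgroup.inclusion hle ⟨K.subtype y, y, hy, rfl⟩ = y := Subtype.ext rfl
    show f (Subgroup.inclusion hle ⟨K.subtype y, y, hy, rfl⟩) ∈ H
    rw [e]; exact hy'
  · rintro ⟨x, hx⟩
    obtain ⟨k, rfl⟩ := hf x
    exact ⟨⟨K.subtype k, k, hx, rfl⟩, Subtype.ext (congrArg f (Subtype.ext rfl))⟩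

theorem IsSec.quo {X : Type u} [Group X] (N : Subgroup X) [N.Normal] (h : IsSec G X) : IsSec G (X ⧸ N) := by
  obtain ⟨K, f, hf⟩ := h
  exact ⟨K, (QuotientGroup.mk' N).comp f, (QuotientGroup.mk'_surjective N).comp hf⟩

theorem isSec_quotient (K R : Subgroup G) [(R.subgroupOf K).Normal] : IsSec G (↥K ⧸ R.subgroupOf K) :=
  ⟨K, QuotientGroup.mk' _, QuotientGroup.mk'_surjective _⟩

theorem isSec_self : IsSec G G := ⟨⊤, Subgroup.subtype _, fun x => ⟨⟨x, trivial⟩, rfl⟩⟩

theorem IsSec.exists_equiv {X : Type u} [Group X] (h : IsSec G X) :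
    ∃ (K R : Subgroup G) (_ : (R.subgroupOf K).Normal), Nonempty ((↥K ⧸ R.subgroupOf K) ≃* X) := by
  obtain ⟨K, f, hf⟩ := h
  have e : (f.ker.map K.subtype).subgroupOf K = f.ker := by
    rw [Subgroup.subgroupOf]; exact Subgroup.comap_map_eq_self_of_injective K.subtype_injective _
  have hn : ((f.ker.map K.subtype).subgroupOf K).Normal := by rw [e]; infer_instance
  exact ⟨K, f.ker.map K.subtype, hn, ⟨(QuotientGroup.quotientMulEquivOfEq e).trans
    (QuotientGroup.quotientKerEquivOfSurjective f hf)⟩⟩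

theorem IsSec.finite [Finite G] {X : Type u} [Group X] (h : IsSec G X) : Finite X := by
  obtain ⟨K, f, hf⟩ := h
  exact Finite.of_surjective f hf

/-! ### transport -/

variable {X Y : Type u} [Group X] [Group Y] {p : ℕ}

theorem map_centralizer_equiv (e : Y ≃* X) (H : Subgroup Y) :
    (Subgroup.centralizer (H : Set Y)).map (e : Y →* X) = Subgroup.centralizer ((H.map (e : Y →* X) : Subgroup X) : Set X) := by
  ext x
  constructor
  · rintro ⟨y, hy, rfl⟩
    rw [Subgroup.mem_centralizer_iff]
    rintro _ ⟨h, hh, rfl⟩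
    have := Subgroup.mem_centralizer_iff.1 hy h hh
    exact (map_mul (e : Y →* X) h y).symm.trans ((congrArg (e : Y →* X) this).trans (map_mul (e : Y →* X) y h))
  · intro hx
    refine ⟨e.symm x, ?_, e.apply_symm_apply x⟩
    show e.symm x ∈ Subgroup.centralizer (H : Set Y)
    rw [Subgroup.mem_centralizer_iff] at hx ⊢
    intro h hh
    have := hx (e h) ⟨h, hh, rfl⟩
    apply e.injective
    rw [map_mul, map_mul, e.apply_symm_apply]
    exact this

theorem map_normalizer_equiv (e : Y ≃* X) (H : Subgroup Y) :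
    (Subgroup.normalizer (H : Set Y)).map (e : Y →* X) = Subgroup.normalizer ((H.map (e : Y →* X) : Subgroup X) : Set X) := by
  ext x
  constructor
  · rintro ⟨y, hy, rfl⟩
    rw [Subgroup.mem_normalizer_iff]
    intro z
    obtain ⟨w, rfl⟩ := e.surjective z
    have h1 : ∀ w, e w ∈ H.map (e : Y →* X) ↔ w ∈ H := by
      intro w
      constructor
      · rintro ⟨v, hv, hvw⟩
        rwa [← e.injective hvw]
      · intro hw; exact ⟨w, hw, rfl⟩
    have h2 : (e : Y →* X) y * e w * ((e : Y →* X) y)⁻¹ = e (y * w * y⁻¹) := by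
      simp
    rw [h1, h2, h1]
    exact Subgroup.mem_normalizer_iff.1 hy w
  · intro hx
    refine ⟨e.symm x, ?_, e.apply_symm_apply x⟩
    show e.symm x ∈ Subgroup.normalizer (H : Set Y)
    rw [Subgroup.mem_normalizer_iff] at hx ⊢
    intro z
    have h1 : ∀ w, e w ∈ H.map (e : Y →* X) ↔ w ∈ H := by
      intro w
      constructor
      · rintro ⟨v, hv, hvw⟩
        rwa [← e.injective hvw]
      · intro hw; exact ⟨w, hw, rfl⟩
    rw [← h1, ← h1, hx (e z)]
    simp

/-- constrained groups: transport -/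
theorem constrained_of_equiv (e : Y ≃* X)
    (h : Subgroup.centralizer ((pCore p X : Subgroup X) : Set X) ≤ pCore p X) :
    Subgroup.centralizer ((pCore p Y : Subgroup Y) : Set Y) ≤ pCore p Y := by
  rw [← Subgroup.map_le_map_iff_of_injective (f := (e : Y →* X)) e.injective, map_centralizer_equiv,
    H1.Cores.map_equiv_pCore]
  exact h

/-- the Sylow subgroup pulled back along an isomorphism -/
theorem exists_sylow_map [Finite Y] [Fact p.Prime] (e : Y ≃* X) (S : Sylow p X) :
    ∃ T : Sylow p Y, (T : Subgroup Y).map (e : Y →* X) = (S : Subgroup X) := by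
  have : Finite X := Finite.of_equiv Y e.toEquiv
  obtain ⟨T, hT⟩ := Sylow.mapSurjective_surjective (f := (e : Y →* X)) e.surjective p S
  refine ⟨T, ?_⟩
  rw [← hT]; rfl

variable {W : ∀ (Q : Type u) [Group Q], Subgroup Q}

theorem map_induced_equiv [Finite Y] (hW : IsCharPFunctor.{u} p W) (e : Y ≃* X) {P : Subgroup Y} (hP : IsPGroup p ↥P) :
    (inducedFunctor W P).map (e : Y →* X) = inducedFunctor W (P.map (e : Y →* X)) :=
  map_induced hW (e : Y →* X) hP (fun _ _ hx => e.injective (hx.trans (map_one e).symm))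

end H38.SecClass
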